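import Mathlib
import Cfsg.Agent.Lib.Helper58.UPair.Defs

/-!
# Project UPair (S5984): package [D1DET]

If `X * X = l ^ 2` (with `2 l ≠ 0`) then `det X = l ^ (n - k) * (-l) ^ k` where `k = rank (X - l)`.
With `det X = 1`, `l ^ (q + 1) = 1` and `(q + 1)_2 ≤ n_2` this forces `k` to be even.
-/

set_option autoImplicit false
open scoped MatrixGroups Matrix

namespace Cfsg.Agent.Lib.Helper63.UPair

open Cfsg.Agent.Lib.Helper58.UPair

universe u

/-- The determinant of a matrix with scalar square. -/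
theorem d1_det_eq {F : Type u} [Field F] {n : ℕ} (X : Matrix (Fin n) (Fin n) F) (l : F)
    (hl : l ≠ 0) (h2 : (2 : F) ≠ 0)
    (hX : X * X = (l ^ 2) • (1 : Matrix (Fin n) (Fin n) F)) :
    X.det = l ^ (n - (X - l • (1 : Matrix (Fin n) (Fin n) F)).rank) *
      (-l) ^ (X - l • (1 : Matrix (Fin n) (Fin n) F)).rank := by
  classical
  set A : Matrix (Fin n) (Fin n) F := X - l • (1 : Matrix (Fin n) (Fin n) F) with hA
  set B : Matrix (Fin n) (Fin n) F := X + l • (1 : Matrix (Fin n) (Fin n) F) with hB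
  have hAB : A * B = 0 := by
    rw [hA, hB]
    simp only [Matrix.sub_mul, Matrix.mul_add, Matrix.mul_smul, Matrix.smul_mul, Matrix.mul_one,
      Matrix.one_mul, hX]
    rw [smul_sub, smul_smul, ← sq]
    abel
  have hBA : B * A = 0 := by
    rw [hA, hB]
    simp only [Matrix.add_mul, Matrix.mul_sub, Matrix.mul_smul, Matrix.smul_mul, Matrix.mul_one,
      Matrix.one_mul, hX]
    rw [smul_add, smul_smul, ← sq]
    abel
  have h2l : (2 * l : F) ≠ 0 := mul_ne_zero h2 hl
  have hBmA : ∀ v : Fin n → F, B *ᵥ v - A *ᵥ v = (2 * l) • v := by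
    intro v
    rw [hA, hB, Matrix.add_mulVec, Matrix.sub_mulVec, Matrix.smul_mulVec, Matrix.one_mulVec]
    rw [two_mul, add_smul]
    abel
  set K : Submodule F (Fin n → F) := LinearMap.ker A.mulVecLin with hK
  set R : Submodule F (Fin n → F) := LinearMap.range A.mulVecLin with hR
  have hdisj : Disjoint K R := by
    rw [Submodule.disjoint_def]
    intro v hvK hvR
    obtain ⟨w, rfl⟩ := hvR
    have h1 : A *ᵥ (A *ᵥ w) = 0 := hvK
    have h3 : B *ᵥ (A *ᵥ w) = 0 := by
      rw [Matrix.mulVec_mulVec, hBA, Matrix.zero_mulVec]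
    have h4 := hBmA (A *ᵥ w)
    rw [h1, h3, sub_zero] at h4
    have h5 : (2 * l) • (A *ᵥ w) = 0 := h4.symm
    rcases smul_eq_zero.mp h5 with h | h
    · exact absurd h h2l
    · exact h
  have hcod : Codisjoint K R := by
    rw [Submodule.codisjoint_iff_exists_add_eq]
    intro z
    refine ⟨(2 * l)⁻¹ • (B *ᵥ z), A *ᵥ (-(2 * l)⁻¹ • z), ?_, ⟨_, rfl⟩, ?_⟩
    · change A *ᵥ ((2 * l)⁻¹ • (B *ᵥ z)) = 0
      rw [Matrix.mulVec_smul, Matrix.mulVec_mulVec, hAB, Matrix.zero_mulVec, smul_zero]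
    · rw [Matrix.mulVec_smul, neg_smul, ← sub_eq_add_neg, ← smul_sub, hBmA, smul_smul,
        inv_mul_cancel₀ h2l, one_smul]
  have hXK : ∀ v ∈ K, X *ᵥ v = l • v := by
    intro v hv
    have h1 : A *ᵥ v = 0 := hv
    rw [hA, Matrix.sub_mulVec, Matrix.smul_mulVec, Matrix.one_mulVec] at h1
    exact sub_eq_zero.mp h1
  have hXR : ∀ v ∈ R, X *ᵥ v = (-l) • v := by
    intro v hv
    obtain ⟨w, rfl⟩ := hv
    have h3 : B *ᵥ (A *ᵥ w) = 0 := by
      rw [Matrix.mulVec_mulVec, hBA, Matrix.zero_mulVec]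
    rw [hB, Matrix.add_mulVec, Matrix.smul_mulVec, Matrix.one_mulVec] at h3
    rw [neg_smul]
    exact eq_neg_of_add_eq_zero_left h3
  set e : (K × R) ≃ₗ[F] (Fin n → F) := Submodule.prodEquivOfIsCompl K R ⟨hdisj, hcod⟩ with he
  set g : (K × R) →ₗ[F] (K × R) :=
    LinearMap.prodMap (l • (LinearMap.id : K →ₗ[F] K)) ((-l) • (LinearMap.id : R →ₗ[F] R)) with hg
  have key : Matrix.toLin' X = (e : (K × R) →ₗ[F] (Fin n → F)) ∘ₗ g ∘ₗ
      (e.symm : (Fin n → F) →ₗ[F] (K × R)) := by
    apply LinearMap.ext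
    intro v
    obtain ⟨⟨k, r⟩, rfl⟩ := e.surjective v
    simp only [LinearMap.comp_apply, LinearEquiv.coe_coe, LinearEquiv.symm_apply_apply]
    rw [he, Submodule.coe_prodEquivOfIsCompl', Submodule.coe_prodEquivOfIsCompl']
    rw [Matrix.toLin'_apply, Matrix.mulVec_add, hXK k k.2, hXR r r.2]
    simp [hg]
  have hfin : Module.finrank F K + A.rank = n := by
    have h1 : Module.finrank F R + Module.finrank F K = Module.finrank F (Fin n → F) :=
      LinearMap.finrank_range_add_finrank_ker A.mulVecLin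
    rw [Module.finrank_fin_fun] at h1
    have h3 : A.rank = Module.finrank F R := rfl
    omega
  have hfK : Module.finrank F K = n - A.rank := by omega
  rw [← LinearMap.det_toLin', key, LinearMap.det_conj, hg, LinearMap.det_prodMap,
    LinearMap.det_smul, LinearMap.det_smul, LinearMap.det_id, LinearMap.det_id, mul_one, mul_one,
    hfK]
  rfl

theorem pkgD1Det : PkgD1Det.{u} := by
  intro F _ _ q n x l hF hq hn hx hsq hl hval
  classical
  -- characteristic is not two
  have h2 : (2 : F) ≠ 0 := by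
    apply Ring.two_ne_zero
    intro hch
    have h1 := FiniteField.even_card_of_char_two hch
    rw [hF] at h1
    rcases hq with ⟨t, rfl⟩
    have : (2 * t + 1) ^ 2 = 2 * (2 * t * t + 2 * t) + 1 := by ring
    omega
  have hl0 : l ≠ 0 := by
    intro h
    rw [h, zero_pow (by omega)] at hl
    exact zero_ne_one hl
  have hXX : (x : Matrix (Fin n) (Fin n) F) * (x : Matrix (Fin n) (Fin n) F)
      = (l ^ 2) • (1 : Matrix (Fin n) (Fin n) F) := by
    rw [← hsq, sq, Units.val_mul]
  have hdet := d1_det_eq (x : Matrix (Fin n) (Fin n) F) l hl0 h2 hXX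
  have hdet1 : (x : Matrix (Fin n) (Fin n) F).det = 1 := by
    have h1 : Matrix.GeneralLinearGroup.det x = 1 := hx.2
    have h3 := congrArg Units.val h1
    simpa using h3
  set k := (sh x l).rank with hk
  rw [hdet1] at hdet
  have hkn : k ≤ n := by
    rw [hk]
    exact Matrix.rank_le_width _
  -- (-1)^k * l^n = 1
  have hmain : (-1 : F) ^ k * l ^ n = 1 := by
    have h1 : l ^ n = l ^ (n - k) * l ^ k := by
      rw [← pow_add]; congr 1; omega
    have h7 : l ^ (n - k) * ((-1) ^ k * l ^ k) = 1 := by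
      rw [← neg_pow]; exact hdet.symm
    calc (-1 : F) ^ k * l ^ n = l ^ (n - k) * ((-1) ^ k * l ^ k) := by rw [h1]; ring
      _ = 1 := h7
  by_contra hodd
  rw [Nat.not_even_iff_odd] at hodd
  have hln : l ^ n = -1 := by
    rw [hodd.neg_one_pow] at hmain
    have : l ^ n = -(-1 * l ^ n) := by ring
    rw [this, hmain]
  -- arithmetic
  obtain ⟨a, s, hs, hqs⟩ := Nat.exists_eq_two_pow_mul_odd (n := q + 1) (by omega)
  have hva : padicValNat 2 (q + 1) = a := by
    rw [hqs, padicValNat.mul (by positivity) (by rcases hs with ⟨t, rfl⟩; omega),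
      padicValNat.prime_pow,
      padicValNat.eq_zero_of_not_dvd (by rcases hs with ⟨t, rfl⟩; omega), add_zero]
  have hdvd : 2 ^ a ∣ n := by
    rw [padicValNat_dvd_iff_le (by omega), ← hva]
    exact hval
  obtain ⟨m, hm⟩ := hdvd
  have h5 : (l ^ n) ^ s = 1 := by
    rw [← pow_mul, hm]
    have : 2 ^ a * m * s = (q + 1) * m := by rw [hqs]; ring
    rw [this, pow_mul, hl, one_pow]
  rw [hln, hs.neg_one_pow] at h5
  have h6 : (2 : F) = 0 := by
    have : (2 : F) = 1 - (-1) := by ring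
    rw [this, h5]; ring
  exact h2 h6

end Cfsg.Agent.Lib.Helper63.UPair
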