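import Mathlib
import Cfsg.Agent.Lib.Helper58.UPair.Defs
import Cfsg.Agent.Lib.Helper45.HermGU
import Cfsg.Agent.Lib.Helper45.HermPlanes

/-!
# Project UPair (S5984): package [TRANSV]

A unitary transvection `v ↦ v - β h(v,w) w` with `w` isotropic and `β^q = -β`.
-/

set_option autoImplicit false
open scoped MatrixGroups Matrix

namespace Cfsg.Agent.Lib.Helper63.UPair

open Cfsg.Agent.Lib.Helper58.UPair Cfsg.Agent.Lib.Helper45

universe u

section
variable {F : Type u} [Field F] [Fintype F] {q : ℕ}

theorem tv_exists_eps (hF : Fintype.card F = q ^ 2) : ∃ ε : F, ε ^ (q + 1) = -1 := by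
  have h := norm_fiber_card hF (-1 : F) (neg_ne_zero.mpr one_ne_zero)
    (by rw [conj_neg hF, one_pow])
  have hpos : 0 < Nat.card {x : F // x ^ (q + 1) = -1} := by rw [h]; omega
  obtain ⟨⟨ε, hε⟩⟩ := (Nat.card_pos_iff.mp hpos).1
  exact ⟨ε, hε⟩

theorem tv_exists_beta (hF : Fintype.card F = q ^ 2) : ∃ β : F, β ≠ 0 ∧ β ^ q = -β := by
  classical
  have hq2 := two_le_q hF
  have h := card_trace_fiber hF (1 : F) 0 one_ne_zero (conj_zero hF)
  obtain ⟨β, hβ, hβ0⟩ := Finset.exists_mem_ne (by rw [h]; omega) (0 : F)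
  refine ⟨β, hβ0, ?_⟩
  have := (Finset.mem_filter.mp hβ).2
  simp only [one_pow, mul_one, zero_add] at this
  exact eq_neg_of_add_eq_zero_left this

/-- Powers of the transvection. -/
theorem tv_pow_mulVec {n : ℕ} (w : Fin n → F) (β : F)
    (hw : Cfsg.hermForm n F q w w = 0) (k : ℕ) (v : Fin n → F) :
    (hermRefl q w β ^ k) *ᵥ v = v - ((k : F) * (β * Cfsg.hermForm n F q v w)) • w := by
  induction k with
  | zero => simp
  | succ k ih =>
    rw [pow_succ', ← Matrix.mulVec_mulVec, ih, hermRefl_mulVec, herm_sub_left, herm_smul_left, hw]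
    funext i
    simp only [Pi.sub_apply, Pi.smul_apply, smul_eq_mul, Nat.cast_succ]
    ring

end

theorem pkgTransv : PkgTransv.{u} := by
  intro F _ _ p _ _ q n hF hn
  classical
  have hq2 := two_le_q hF
  have hq0 : q ≠ 0 := by omega
  obtain ⟨ε, hε⟩ := tv_exists_eps hF
  obtain ⟨β, hβ0, hβ⟩ := tv_exists_beta hF
  set i0 : Fin n := ⟨0, by omega⟩ with hi0
  set i1 : Fin n := ⟨1, by omega⟩ with hi1
  have h01 : i0 ≠ i1 := by
    intro h
    have := congrArg Fin.val h
    simp [hi0, hi1] at this
  set w : Fin n → F := Pi.single i0 1 + ε • Pi.single i1 1 with hwdef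
  have hw0 : w i0 = 1 := by
    simp [hwdef, Pi.single_eq_of_ne h01]
  have hw1 : w i1 = ε := by
    simp [hwdef, Pi.single_eq_of_ne (Ne.symm h01)]
  have hww : Cfsg.hermForm n F q w w = 0 := by
    have h1 : Cfsg.hermForm n F q w w
        = Cfsg.hermForm n F q w (Pi.single i0 1) +
          Cfsg.hermForm n F q w (ε • Pi.single i1 1) := by
      conv_lhs => rw [hwdef]
      rw [herm_add_right hF]
    rw [h1, herm_smul_right, herm_single_right hq0, herm_single_right hq0, hw0, hw1,
      ← pow_succ, hε]
    ring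
  have hiso : IsHermIso n F q (hermRefl q w β) := by
    apply isHermIso_refl hF
    rw [hww, hβ]; ring
  have hpF : (p : F) = 0 := CharP.cast_eq_zero F p
  have hpow : hermRefl q w β ^ p = 1 := by
    apply Matrix.mulVec_injective
    funext v
    rw [tv_pow_mulVec w β hww, hpF, Matrix.one_mulVec]
    simp
  have hdet : (hermRefl q w β).det = 1 := by
    have h1 : (hermRefl q w β).det ^ p = 1 := by
      rw [← Matrix.det_pow, hpow, Matrix.det_one]
    have h2 : ((hermRefl q w β).det - 1) ^ p = 0 := by
      rw [sub_pow_char, h1, one_pow, sub_self]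
    exact sub_eq_zero.mp (pow_eq_zero_iff (Fact.out : p.Prime).ne_zero |>.mp h2)
  set x : GL (Fin n) F := (isHermIso_isUnit hF hiso).unit with hx
  have hxval : (x : Matrix (Fin n) (Fin n) F) = hermRefl q w β := rfl
  refine ⟨x, ⟨?_, ?_⟩, ?_, ?_⟩
  · exact hiso
  · change Matrix.GeneralLinearGroup.det x = 1
    apply Units.ext
    simpa [hxval] using hdet
  · apply Units.ext
    rw [Units.val_pow_eq_pow_val, hxval, hpow]
    rfl
  · have hsh : sh x 1 = Matrix.vecMulVec ((-β) • w) (fun j => w j ^ q) := by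
      unfold sh
      rw [hxval]
      unfold hermRefl
      rw [one_smul, Matrix.smul_vecMulVec]
      simp
    apply le_antisymm
    · rw [hsh]; exact Matrix.rank_vecMulVec_le _ _
    · by_contra hlt
      have h0 : (sh x 1).rank = 0 := by omega
      have hv : sh x 1 *ᵥ (Pi.single i0 1) = (-(β * Cfsg.hermForm n F q (Pi.single i0 1) w)) • w := by
        unfold sh
        rw [hxval, one_smul, Matrix.sub_mulVec, Matrix.one_mulVec, hermRefl_mulVec]
        funext i
        simp
      have hform : Cfsg.hermForm n F q (Pi.single i0 1) w = 1 := by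
        rw [← herm_conj hF, herm_single_right hq0, hw0, one_pow]
      rw [hform, mul_one] at hv
      have hne : sh x 1 *ᵥ (Pi.single i0 1) ≠ 0 := by
        rw [hv]
        intro h
        have := congrFun h i0
        simp [hw0, hβ0] at this
      have hrange : (sh x 1 *ᵥ (Pi.single i0 1)) ∈ LinearMap.range (sh x 1).mulVecLin :=
        ⟨_, rfl⟩
      have hbot : LinearMap.range (sh x 1).mulVecLin = ⊥ := by
        have : Module.finrank F (LinearMap.range (sh x 1).mulVecLin) = 0 := h0
        exact Submodule.finrank_eq_zero.mp this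
      rw [hbot, Submodule.mem_bot] at hrange
      exact hne hrange

end Cfsg.Agent.Lib.Helper63.UPair
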